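import Mathlib
import Cfsg.Agent.Lib.Helper49.HUP.Defs

set_option autoImplicit false

universe u v

namespace Cfsg.Agent.Lib.Helper49.HUP

/-- assembly of the HUP packages: the statement of S3361 -/
theorem hup_main
    (linFacts : PkgLinFacts.{u, v}) (semiU : PkgSemiU.{u, v}) (semiD : PkgSemiD.{u, v})
    (semiM : PkgSemiM.{u, v}) (meta2 : PkgMeta2.{v}) (bridge : PkgBridge.{u, v})
    (exc : PkgExc.{v})
    (q : ℕ) [Fact q.Prime] {V : Type u} [AddCommGroup V] [Module (ZMod q) V] [Finite V]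
    [Nontrivial V] {G : Type v} [Group G] [Finite G] (hsol : Group.IsSolvable G)
    (ρ : G →* (V ≃ₗ[ZMod q] V)) (hρ : Function.Injective ρ)
    (htrans : ∀ v w : V, v ≠ 0 → w ≠ 0 → ∃ g : G, ρ g v = w)
    (hreg : ∀ v : V, v ≠ 0 → ∀ g : G, ρ g v = v → g = 1) :
    ((∃ (F : Type) (_ : Field F) (_ : Fintype F) (e : V ≃+ F),
        ∀ g : G, ∃ (a : F) (σ : F ≃+* F), ∀ v : V, e (ρ g v) = a * σ (e v)) ∨
      Nat.card V ∈ ({25, 49, 121, 529} : Set ℕ)) ∧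
    (q ≠ 2 → (∃ N : Subgroup G, N.Normal ∧ N.index = 2) ∨
      (Nat.card V = 25 ∧ Nonempty (G ≃* Matrix.SpecialLinearGroup (Fin 2) (ZMod 3))) ∨
      (Nat.card V = 121 ∧
        Nonempty (G ≃* Matrix.SpecialLinearGroup (Fin 2) (ZMod 3) × Multiplicative (ZMod 5)))) := by
  classical
  have hR : IsReg ρ := ⟨hρ, htrans, hreg⟩
  obtain ⟨hcard, hui, heven⟩ := linFacts ρ hR
  by_cases hβ : ∃ A : Subgroup G, A.Normal ∧ IsCyclic A ∧ Irr ρ A
  · obtain ⟨A, hAn, hAc, hAi⟩ := hβ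
    refine ⟨Or.inl (semiD ρ (semiU ρ hR A hAn hAc hAi)), fun hq => Or.inl ?_⟩
    obtain ⟨C, hCn, hCc, hCcomm⟩ := semiM ρ hR A hAn hAc hAi
    exact meta2 (heven hq) C hCn hCc hCcomm
  · have hV := bridge ρ hR hsol hβ
    refine ⟨Or.inr hV, fun _ => ?_⟩
    have hV' : Nat.card V = 25 ∨ Nat.card V = 49 ∨ Nat.card V = 121 ∨ Nat.card V = 529 := by
      simpa using hV
    have hG : Nat.card G = 24 ∨ Nat.card G = 48 ∨ Nat.card G = 120 ∨ Nat.card G = 528 := by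
      omega
    rcases exc hsol hui hG with h | ⟨h24, hiso⟩ | ⟨h120, hiso⟩
    · exact Or.inl h
    · exact Or.inr (Or.inl ⟨by omega, hiso⟩)
    · exact Or.inr (Or.inr ⟨by omega, hiso⟩)

end Cfsg.Agent.Lib.Helper49.HUP
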